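import Cfsg.Agent.Lib.Helper58.OAsch.Basic
import Cfsg.Agent.Lib.Helper58.Asch.L0a

set_option autoImplicit false

namespace Cfsg.Agent.Lib.Helper58.OAsch

open Cfsg Cfsg.Geo Matrix Cfsg.Agent.Lib.Helper13.Asch Cfsg.Agent.Lib.Helper21.OAsch
open scoped Kronecker MatrixGroups

variable {ι : Type} [Fintype ι] [DecidableEq ι] {F : Type*} [Field F] {Q : (ι → F) → F}
  {G : Matrix ι ι F}

/-- O1 -/
theorem reducible_case (hO : OData Q G) {H : Subgroup (GL ι F)} (hH : Iso G H)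
    (hred : ¬ ActsIrreducibly (matrixSet H)) : C1a Q H ∨ C1b Q H := by
  unfold ActsIrreducibly at hred
  push Not at hred
  obtain ⟨W, hW, hW0, hW1⟩ := hred
  have key : ∀ g ∈ H, ∀ v ∈ W, (g : Matrix ι ι F) *ᵥ v ∈ W := by
    intro g hg v hv
    have := hW (g : Matrix ι ι F) ⟨g, hg, rfl⟩ (Submodule.mem_map_of_mem hv)
    simpa using this
  let R : Submodule F (ι → F) :=
    { carrier := {w | w ∈ W ∧ ∀ x ∈ W, x ⬝ᵥ (G *ᵥ w) = 0}
      add_mem' := by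
        rintro a b ⟨ha, ha'⟩ ⟨hb, hb'⟩
        refine ⟨W.add_mem ha hb, fun x hx => ?_⟩
        rw [Matrix.mulVec_add, dotProduct_add, ha' x hx, hb' x hx, add_zero]
      zero_mem' := ⟨W.zero_mem, fun x _ => by rw [Matrix.mulVec_zero, dotProduct_zero]⟩
      smul_mem' := by
        rintro c a ⟨ha, ha'⟩
        refine ⟨W.smul_mem c ha, fun x hx => ?_⟩
        rw [Matrix.mulVec_smul, dotProduct_smul, ha' x hx, smul_zero] }
  have hRmem : ∀ w, w ∈ R ↔ w ∈ W ∧ ∀ x ∈ W, x ⬝ᵥ (G *ᵥ w) = 0 := fun w => Iff.rfl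
  by_cases hR : R = ⊥
  · right
    refine ⟨W, hW0, hW1, ?_, Cfsg.Agent.Lib.Helper58.Asch.le_subspaceStabilizer hW⟩
    intro w hw hw0
    have h1 : ∃ x ∈ W, x ⬝ᵥ (G *ᵥ w) ≠ 0 := by
      by_contra hcon
      push Not at hcon
      have : w ∈ R := (hRmem w).2 ⟨hw, hcon⟩
      rw [hR, Submodule.mem_bot] at this
      exact hw0 this
    obtain ⟨x, hx, hxw⟩ := h1
    refine ⟨⟨x, hx, ?_⟩, ⟨x, hx, ?_⟩⟩
    · rw [hO.polar]; exact hxw
    · rw [hO.polar, dot_symm hO.symm]; exact hxw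
  · left
    refine ⟨R, hR, ?_, ?_⟩
    · intro w hw
      have h1 := hO.quad w
      rw [((hRmem w).1 hw).2 w ((hRmem w).1 hw).1] at h1
      exact (mul_eq_zero.1 h1).resolve_left hO.two
    · apply Cfsg.Agent.Lib.Helper58.Asch.le_subspaceStabilizer
      rintro _ ⟨g, hg, rfl⟩
      rintro _ ⟨w, hw, rfl⟩
      rw [Matrix.toLin'_apply]
      refine (hRmem _).2 ⟨key g hg w hw.1, fun x hx => ?_⟩
      rw [dot_iso_right hH hg]
      exact hw.2 _ (key g⁻¹ (inv_mem hg) x hx)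

end Cfsg.Agent.Lib.Helper58.OAsch
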