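import Cfsg.Agent.Lib.Helper21.OAsch.Defs

set_option autoImplicit false

namespace Cfsg.Agent.Lib.Helper58.OAsch

open Cfsg Cfsg.Geo Matrix Cfsg.Agent.Lib.Helper13.Asch Cfsg.Agent.Lib.Helper21.OAsch
open scoped Kronecker MatrixGroups

variable {ι : Type} [Fintype ι] [DecidableEq ι] {F : Type*} [Field F] {Q : (ι → F) → F}
  {G : Matrix ι ι F}

/-- O9b -/
theorem mem_of_commute_full_field (K : Subalgebra F (Matrix ι ι F))
    (hK : IsFieldSubalgebra (Fintype.card ι) K) (x : Matrix ι ι F)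
    (hx : ∀ k ∈ K, x * k = k * x) : x ∈ K := by
  rcases isEmpty_or_nonempty ι with hι | ⟨⟨i⟩⟩
  · have : x = 0 := by ext a; exact (hι.false a).elim
    rw [this]; exact K.zero_mem
  set v : ι → F := Pi.single i 1 with hv
  have hv0 : v ≠ 0 := by
    intro h
    have := congrFun h i
    simp [hv] at this
  let T : ↥K →ₗ[F] (ι → F) :=
    { toFun := fun k => (k : Matrix ι ι F) *ᵥ v
      map_add' := fun a b => by simp [Matrix.add_mulVec]
      map_smul' := fun c a => by simp [Matrix.smul_mulVec] }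
  have hTinj : Function.Injective T := by
    rw [injective_iff_map_eq_zero]
    intro k hk
    by_contra hk0
    obtain ⟨y, hy, hky⟩ := hK.inv k.1 k.2 (fun h => hk0 (Subtype.ext h))
    have hyk : y * k.1 = 1 := by rw [hK.comm y hy k.1 k.2]; exact hky
    have h1 : (k : Matrix ι ι F) *ᵥ v = 0 := hk
    have h2 : (y * k.1) *ᵥ v = 0 := by rw [← Matrix.mulVec_mulVec, h1, Matrix.mulVec_zero]
    rw [hyk, Matrix.one_mulVec] at h2
    exact hv0 h2
  have hfr : Module.finrank F ↥K = Module.finrank F (ι → F) := by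
    rw [hK.finrank_eq, Module.finrank_fintype_fun_eq_card]
  have hTsurj : Function.Surjective T :=
    (LinearMap.injective_iff_surjective_of_finrank_eq_finrank hfr).1 hTinj
  obtain ⟨k₀, hk₀⟩ := hTsurj (x *ᵥ v)
  have hk₀' : (k₀ : Matrix ι ι F) *ᵥ v = x *ᵥ v := hk₀
  have hxk : x = k₀.1 := by
    apply Matrix.toLin'.injective
    apply LinearMap.ext
    intro w
    obtain ⟨k, hk⟩ := hTsurj w
    have hk' : (k : Matrix ι ι F) *ᵥ v = w := hk
    rw [Matrix.toLin'_apply, Matrix.toLin'_apply, ← hk', Matrix.mulVec_mulVec, Matrix.mulVec_mulVec,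
      hx k.1 k.2, hK.comm k₀.1 k₀.2 k.1 k.2, ← Matrix.mulVec_mulVec, ← Matrix.mulVec_mulVec, hk₀']
  rw [hxk]
  exact k₀.2

end Cfsg.Agent.Lib.Helper58.OAsch
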