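import Cfsg.Agent.Lib.Helper58.OAsch.Basic
import Cfsg.Agent.Lib.Helper58.OAsch.O9a
import Cfsg.Agent.Lib.Helper58.OAsch.O9b

set_option autoImplicit false

namespace Cfsg.Agent.Lib.Helper58.OAsch

open Cfsg Cfsg.Geo Matrix Cfsg.Agent.Lib.Helper13.Asch Cfsg.Agent.Lib.Helper21.OAsch
open scoped Kronecker MatrixGroups

variable {ι : Type} [Fintype ι] [DecidableEq ι] {F : Type*} [Field F] {Q : (ι → F) → F}
  {G : Matrix ι ι F}

/-- O9 -/
theorem field_case [Fintype F] (hO : OData Q G) (H N : Subgroup (GL ι F)) (hN : Iso G N)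
    (hns : ¬ N ≤ scalars ι F) (hK : H ≤ subalgebraNormalizer (cen (env N)))
    (hinv : ∀ x ∈ cen (env N), x ≠ 0 → ∃ y ∈ cen (env N), x * y = 1)
    (hsa : ∀ z ∈ cen (env N), adj G z = z)
    (hne : ∃ x ∈ cen (env N), ∀ c : F, x ≠ c • 1) : C3 Q H := by
  have hcomm : ∀ x ∈ cen (env N), ∀ y ∈ cen (env N), x * y = y * x := by
    intro x hx y hy
    have hx1 : x ∈ env N := (Algebra.mem_inf.1 hx).1
    have hy2 := (Algebra.mem_inf.1 hy).2
    rw [Subalgebra.mem_centralizer_iff] at hy2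
    exact hy2 x hx1
  obtain ⟨r, K', hr, hK', hle, hnrm⟩ := prime_subfield' H (cen (env N)) hK hcomm hinv hne
  refine ⟨r, K', hr, ?_, hK', ?_, hnrm⟩
  · intro hcard
    subst hcard
    apply hns
    intro x hx
    have hxe : (x : Matrix ι ι F) ∈ env N := Algebra.subset_adjoin ⟨x, hx, rfl⟩
    have hxK : (x : Matrix ι ι F) ∈ K' := by
      apply mem_of_commute_full_field K' hK'
      intro k hk
      have hk2 := (Algebra.mem_inf.1 (hle hk)).2
      rw [Subalgebra.mem_centralizer_iff] at hk2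
      exact hk2 _ hxe
    have h1 : adj G (x : Matrix ι ι F) = x := hsa _ (hle hxK)
    have h2 := adj_of_iso hO.unit hN hx
    have h3 : (x : Matrix ι ι F) * (x : Matrix ι ι F) = 1 := by
      have h4 : (x : Matrix ι ι F) = ((x⁻¹ : GL ι F) : Matrix ι ι F) := h1.symm.trans h2
      calc (x : Matrix ι ι F) * (x : Matrix ι ι F)
          = (x : Matrix ι ι F) * ((x⁻¹ : GL ι F) : Matrix ι ι F) := by rw [← h4]
        _ = 1 := val_mul_inv x
    have h5 : ((x : Matrix ι ι F) - 1) * ((x : Matrix ι ι F) + 1) = 0 := by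
      rw [sub_mul, mul_add, mul_one, one_mul, h3]; abel
    rw [mem_scalars_iff]
    by_cases h6 : (x : Matrix ι ι F) - 1 = 0
    · exact ⟨1, by rw [Units.val_one, one_smul]; exact sub_eq_zero.1 h6⟩
    · obtain ⟨y, hy, hy1⟩ := hK'.inv _ (K'.sub_mem hxK K'.one_mem) h6
      have hy2 : y * ((x : Matrix ι ι F) - 1) = 1 := by
        rw [hK'.comm y hy _ (K'.sub_mem hxK K'.one_mem)]; exact hy1
      have h7 : (x : Matrix ι ι F) + 1 = 0 := by
        calc (x : Matrix ι ι F) + 1 = (y * ((x : Matrix ι ι F) - 1)) * ((x : Matrix ι ι F) + 1) := by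
              rw [hy2, one_mul]
          _ = 0 := by rw [mul_assoc, h5, mul_zero]
      refine ⟨-1, ?_⟩
      rw [Units.val_neg, Units.val_one, neg_smul, one_smul]
      exact eq_neg_of_add_eq_zero_left h7
  · intro k hk u v
    rw [hO.polar, hO.polar, dot_mulVec_left, dot_mulVec_right,
      transpose_mul_of_adj hO.unit (hsa k (hle hk))]

end Cfsg.Agent.Lib.Helper58.OAsch
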