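import Cfsg.Agent.Lib.Helper21.OAsch.Defs

set_option autoImplicit false

namespace Cfsg.Agent.Lib.Helper58.OAsch

open Cfsg Cfsg.Geo Matrix Cfsg.Agent.Lib.Helper13.Asch Cfsg.Agent.Lib.Helper21.OAsch
open scoped Kronecker MatrixGroups

variable {ι : Type} [Fintype ι] [DecidableEq ι] {F : Type*} [Field F] {Q : (ι → F) → F}
  {G : Matrix ι ι F}

theorem transpose_mul_of_adj (hG : IsUnit G.det) {k l : Matrix ι ι F} (h : adj G k = l) :
    kᵀ * G = G * l := by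
  rw [← h, adj, ← mul_assoc, ← mul_assoc, Matrix.mul_nonsing_inv G hG, one_mul]

theorem adj_of_transpose_mul (hG : IsUnit G.det) {k l : Matrix ι ι F} (h : kᵀ * G = G * l) :
    adj G k = l := by
  rw [adj, mul_assoc, h, ← mul_assoc, Matrix.nonsing_inv_mul G hG, one_mul]

theorem dot_mulVec_left (k : Matrix ι ι F) (u v : ι → F) :
    (k *ᵥ u) ⬝ᵥ (G *ᵥ v) = u ⬝ᵥ ((kᵀ * G) *ᵥ v) := by
  rw [← Matrix.mulVec_mulVec, Matrix.dotProduct_mulVec u kᵀ, Matrix.vecMul_transpose]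

theorem dot_mulVec_right (k : Matrix ι ι F) (u v : ι → F) :
    u ⬝ᵥ (G *ᵥ (k *ᵥ v)) = u ⬝ᵥ ((G * k) *ᵥ v) := by
  rw [Matrix.mulVec_mulVec]

theorem dot_symm (hG : Gᵀ = G) (u v : ι → F) : u ⬝ᵥ (G *ᵥ v) = v ⬝ᵥ (G *ᵥ u) := by
  rw [Matrix.dotProduct_mulVec, ← Matrix.mulVec_transpose, hG, dotProduct_comm]

theorem val_inv_mul (g : GL ι F) : ((g⁻¹ : GL ι F) : Matrix ι ι F) * (g : Matrix ι ι F) = 1 := by
  rw [← Units.val_mul, inv_mul_cancel, Units.val_one]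

theorem val_mul_inv (g : GL ι F) : (g : Matrix ι ι F) * ((g⁻¹ : GL ι F) : Matrix ι ι F) = 1 := by
  rw [← Units.val_mul, mul_inv_cancel, Units.val_one]

theorem adj_of_iso (hG : IsUnit G.det) {H : Subgroup (GL ι F)} (hH : Iso G H) {h : GL ι F}
    (hh : h ∈ H) : adj G (h : Matrix ι ι F) = ((h⁻¹ : GL ι F) : Matrix ι ι F) := by
  apply adj_of_transpose_mul hG
  have h1 := hH h hh
  calc (h : Matrix ι ι F)ᵀ * G = (h : Matrix ι ι F)ᵀ * G * ((h : Matrix ι ι F) *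
        ((h⁻¹ : GL ι F) : Matrix ι ι F)) := by rw [val_mul_inv, mul_one]
    _ = ((h : Matrix ι ι F)ᵀ * G * (h : Matrix ι ι F)) * ((h⁻¹ : GL ι F) : Matrix ι ι F) := by
        simp only [mul_assoc]
    _ = _ := by rw [h1]

/-- isometries preserve the bilinear form -/
theorem dot_iso {H : Subgroup (GL ι F)} (hH : Iso G H) {h : GL ι F} (hh : h ∈ H) (u v : ι → F) :
    ((h : Matrix ι ι F) *ᵥ u) ⬝ᵥ (G *ᵥ ((h : Matrix ι ι F) *ᵥ v)) = u ⬝ᵥ (G *ᵥ v) := by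
  rw [dot_mulVec_left, Matrix.mulVec_mulVec, hH h hh]

/-- moving an isometry to the other side -/
theorem dot_iso_right {H : Subgroup (GL ι F)} (hH : Iso G H) {h : GL ι F} (hh : h ∈ H)
    (u v : ι → F) :
    u ⬝ᵥ (G *ᵥ ((h : Matrix ι ι F) *ᵥ v)) = (((h⁻¹ : GL ι F) : Matrix ι ι F) *ᵥ u) ⬝ᵥ (G *ᵥ v) := by
  have h1 := dot_iso hH hh (((h⁻¹ : GL ι F) : Matrix ι ι F) *ᵥ u) v
  rw [Matrix.mulVec_mulVec, val_mul_inv, Matrix.one_mulVec] at h1
  exact h1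

/-- isometries preserve the quadratic form -/
theorem quad_iso (hO : OData Q G) {H : Subgroup (GL ι F)} (hH : Iso G H) {h : GL ι F} (hh : h ∈ H)
    (v : ι → F) : Q ((h : Matrix ι ι F) *ᵥ v) = Q v := by
  have h1 := hO.quad ((h : Matrix ι ι F) *ᵥ v)
  rw [dot_iso hH hh, ← hO.quad] at h1
  exact mul_left_cancel₀ hO.two h1

/-- the form is nondegenerate -/
theorem exists_dot_ne_zero (hG : IsUnit G.det) {w : ι → F} (hw : w ≠ 0) :
    ∃ x : ι → F, x ⬝ᵥ (G *ᵥ w) ≠ 0 := by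
  by_contra hcon
  push Not at hcon
  have h1 : G *ᵥ w = 0 := by
    funext i
    have := hcon (Pi.single i 1)
    simpa using this
  have h2 : G⁻¹ *ᵥ (G *ᵥ w) = 0 := by rw [h1, Matrix.mulVec_zero]
  rw [Matrix.mulVec_mulVec, Matrix.nonsing_inv_mul G hG, Matrix.one_mulVec] at h2
  exact hw h2

end Cfsg.Agent.Lib.Helper58.OAsch
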