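import Cfsg.Agent.Lib.Helper58.OAsch.Basic
import Cfsg.Agent.Lib.Helper73.Asch.L2a

set_option autoImplicit false

namespace Cfsg.Agent.Lib.Helper58.OAsch

open Cfsg Cfsg.Geo Matrix Cfsg.Agent.Lib.Helper13.Asch Cfsg.Agent.Lib.Helper21.OAsch
open Cfsg.Agent.Lib.Helper73.Asch
open scoped Kronecker MatrixGroups

variable {ι : Type} [Fintype ι] [DecidableEq ι] {F : Type*} [Field F] {Q : (ι → F) → F}
  {G : Matrix ι ι F}

/-- O2 -/
theorem orth_of_set (hO : OData Q G) (H : Subgroup (GL ι F)) (hH : Iso G H)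
    (hirr : ActsIrreducibly (matrixSet H))
    (𝒟 : Set (Submodule F (ι → F))) (hne : ∀ W ∈ 𝒟, W ≠ ⊥) (hind : sSupIndep 𝒟)
    (h2 : ∃ W ∈ 𝒟, ∃ W' ∈ 𝒟, W ≠ W')
    (hperm : ∀ h ∈ H, ∀ W ∈ 𝒟, W.map (Matrix.toLin' (h : Matrix ι ι F)) ∈ 𝒟)
    (horth : ∀ W ∈ 𝒟, ∀ W' ∈ 𝒟, W ≠ W' → AreOrthogonalFor (QuadraticMap.polar Q) W W') :
    ∃ k, CDec Q H k := by
  obtain ⟨W0, hW0, W1, hW1, h01⟩ := h2
  set O : Set (Submodule F (ι → F)) :=
    {W | ∃ h ∈ H, W = W0.map (Matrix.toLin' (h : Matrix ι ι F))} with hOdef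
  have hOD : O ⊆ 𝒟 := by
    rintro _ ⟨h, hh, rfl⟩
    exact hperm h hh W0 hW0
  have hW0O : W0 ∈ O := ⟨1, H.one_mem, by simp⟩
  have hOtop : sSup O = ⊤ := by
    have hinv : ∀ s ∈ matrixSet H, (sSup O).map (Matrix.toLin' s) ≤ sSup O := by
      rintro _ ⟨g, hg, rfl⟩
      rw [sSup_eq_iSup, Submodule.map_iSup]
      refine iSup_le fun S => ?_
      rw [Submodule.map_iSup]
      refine iSup_le fun hS => ?_
      rw [← sSup_eq_iSup]
      obtain ⟨h, hh, rfl⟩ := hS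
      refine le_sSup ⟨g * h, H.mul_mem hg hh, ?_⟩
      rw [Units.val_mul, Matrix.toLin'_mul, Submodule.map_comp]
    rcases hirr _ hinv with h | h
    · exact absurd (le_bot_iff.1 (h ▸ le_sSup hW0O)) (hne W0 hW0)
    · exact h
  have hDO : 𝒟 ⊆ O := by
    intro W hW
    by_contra hWO
    have hsub : O ⊆ 𝒟 \ {W} := fun X hX => ⟨hOD hX, fun hXW => hWO (hXW ▸ hX)⟩
    have hd := hind hW
    have htop : sSup (𝒟 \ {W}) = ⊤ := top_le_iff.1 (hOtop ▸ sSup_le_sSup hsub)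
    rw [htop] at hd
    exact hne W hW (disjoint_top.1 hd)
  have hfin : 𝒟.Finite := WellFoundedGT.finite_of_sSupIndep hind
  have : Finite 𝒟 := hfin
  have : Fintype 𝒟 := Fintype.ofFinite 𝒟
  set t := Fintype.card 𝒟 with ht
  let e : 𝒟 ≃ Fin t := Fintype.equivFin 𝒟
  let D : Fin t → Submodule F (ι → F) := fun i => ((e.symm i : 𝒟) : Submodule F (ι → F))
  have hDmem : ∀ i, D i ∈ 𝒟 := fun i => (e.symm i).2
  have hDinj : ∀ i j, i ≠ j → D i ≠ D j := by
    intro i j hij h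
    exact hij (e.symm.injective (Subtype.ext h))
  have hDtop : iSup D = ⊤ := by
    rw [eq_top_iff, ← hOtop]
    refine sSup_le fun W hW => ?_
    have : D (e ⟨W, hOD hW⟩) = W := by simp [D]
    rw [← this]
    exact le_iSup D _
  have hiso0 : ∀ W ∈ 𝒟, AreIsometricFor Q W0 W := by
    intro W hW
    obtain ⟨h, hh, rfl⟩ := hDO hW
    refine ⟨Submodule.equivMapOfInjective _ (toLin'_gl_injective h) W0, fun w => ?_⟩
    rw [Submodule.coe_equivMapOfInjective_apply, Matrix.toLin'_apply]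
    exact quad_iso hO hH hh _
  refine ⟨Module.finrank F W0, t, D, ⟨⟨⟨?_, ?_, ?_, ?_, hDtop⟩, ?_, ?_⟩, ?_⟩, ?_⟩
  · have : 1 < Fintype.card 𝒟 :=
      Fintype.one_lt_card_iff.2 ⟨⟨W0, hW0⟩, ⟨W1, hW1⟩, fun h => h01 (congrArg Subtype.val h)⟩
    exact this
  · exact Module.finrank_pos_iff.2 (Submodule.nontrivial_iff_ne_bot.2 (hne W0 hW0))
  · intro i
    obtain ⟨h, hh, hD⟩ := hDO (e.symm i).2
    show Module.finrank F ((e.symm i : 𝒟) : Submodule F (ι → F)) = _
    rw [hD]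
    exact (LinearEquiv.finrank_eq
      (Submodule.equivMapOfInjective _ (toLin'_gl_injective h) W0)).symm
  · exact ((sSupIndep_iff 𝒟).1 hind).comp e.symm.injective
  · intro i w hw hw0
    have h1 : ∃ x ∈ D i, x ⬝ᵥ (G *ᵥ w) ≠ 0 := by
      by_contra hcon
      push Not at hcon
      obtain ⟨x, hx⟩ := exists_dot_ne_zero hO.unit hw0
      apply hx
      have hxt : x ∈ iSup D := by rw [hDtop]; trivial
      refine Submodule.iSup_induction D (motive := fun x => x ⬝ᵥ (G *ᵥ w) = 0) hxt ?_ ?_ ?_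
      · intro j y hy
        by_cases hij : j = i
        · subst hij; exact hcon y hy
        · have := horth (D j) (hDmem j) (D i) (hDmem i) (hDinj j i hij) y hy w hw
          rwa [hO.polar] at this
      · rw [zero_dotProduct]
      · intro y z hy hz
        rw [add_dotProduct, hy, hz, add_zero]
    obtain ⟨x, hx, hxw⟩ := h1
    refine ⟨⟨x, hx, ?_⟩, ⟨x, hx, ?_⟩⟩
    · rw [hO.polar]; exact hxw
    · rw [hO.polar, dot_symm hO.symm]; exact hxw
  · intro i j hij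
    exact horth (D i) (hDmem i) (D j) (hDmem j) (hDinj i j hij)
  · intro i j
    obtain ⟨e1, h1⟩ := hiso0 (D i) (hDmem i)
    obtain ⟨e2, h2⟩ := hiso0 (D j) (hDmem j)
    refine ⟨e1.symm.trans e2, fun w => ?_⟩
    rw [LinearEquiv.trans_apply, h2, ← h1 (e1.symm w), LinearEquiv.apply_symm_apply]
  · intro g hg
    let f : 𝒟 → 𝒟 := fun W => ⟨(W : Submodule F (ι → F)).map (Matrix.toLin' (g : Matrix ι ι F)),
      hperm g hg W W.2⟩
    have hf : Function.Injective f := by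
      intro W W' hWW
      have := congrArg Subtype.val hWW
      exact Subtype.ext (Submodule.map_injective_of_injective (toLin'_gl_injective g) this)
    have hfb : Function.Bijective f := Finite.injective_iff_bijective.1 hf
    refine ⟨(e.symm.trans (Equiv.ofBijective f hfb)).trans e, fun i => ?_⟩
    simp [D, f]

end Cfsg.Agent.Lib.Helper58.OAsch
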